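import Mathlib
import Cfsg.Agent.Lib.Helper8.OFus.Defs
import Cfsg.Agent.Lib.Helper99.AltBasis

set_option autoImplicit false

/-!
# S2720 / S2721, package DET0

A similarity `t` (multiplier `μ`) of a quadratic form commuting with an isometry `A` of odd
order without non-zero fixed vectors has determinant `μ ^ (dim / 2)`: the form
`ω(x, y) = β((A - A⁻¹) x, y)` is alternating, non-degenerate and `ω(t x, t y) = μ ω(x, y)`;
in a hyperbolic basis of `ω` the matrix of `t`, rescaled on half of the basis, is symplectic.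
-/

namespace Cfsg.Agent.Lib.Helper84.OFus

open Module Matrix
open Cfsg.Agent.Lib.Helper8.WallForm Cfsg.Agent.Lib.Helper8.OFus

universe u

/-- A matrix `M` with `Mᵀ J M = μ J` has determinant `μ ^ m`. -/
theorem det_of_symp_sim {F : Type*} [Field F] (m : ℕ)
    (M : Matrix (Fin m ⊕ Fin m) (Fin m ⊕ Fin m) F) (μ : F) (hμ : μ ≠ 0)
    (h : Mᵀ * Matrix.J (Fin m) F * M = μ • Matrix.J (Fin m) F) : M.det = μ ^ m := by
  obtain ⟨D, hD⟩ : ∃ D : Matrix (Fin m ⊕ Fin m) (Fin m ⊕ Fin m) F,
      D = Matrix.fromBlocks 1 0 0 (μ⁻¹ • (1 : Matrix (Fin m) (Fin m) F)) := ⟨_, rfl⟩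
  have hDt : Dᵀ = D := by
    rw [hD, Matrix.fromBlocks_transpose]
    simp
  have hDJD : D * Matrix.J (Fin m) F * D = μ⁻¹ • Matrix.J (Fin m) F := by
    rw [hD, Matrix.J, Matrix.fromBlocks_multiply, Matrix.fromBlocks_multiply,
      Matrix.fromBlocks_smul]
    simp
  have hmem : M * D ∈ Matrix.symplecticGroup (Fin m) F := by
    rw [SymplecticGroup.mem_iff', Matrix.transpose_mul, hDt]
    calc D * Mᵀ * Matrix.J (Fin m) F * (M * D)
        = D * (Mᵀ * Matrix.J (Fin m) F * M) * D := by simp only [Matrix.mul_assoc]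
      _ = μ • (D * Matrix.J (Fin m) F * D) := by
          rw [h, Matrix.mul_smul, Matrix.smul_mul]
      _ = Matrix.J (Fin m) F := by rw [hDJD, smul_smul, mul_inv_cancel₀ hμ, one_smul]
  have hdet := SymplecticGroup.det_eq_one hmem
  rw [Matrix.det_mul] at hdet
  have hdD : D.det = μ⁻¹ ^ m := by
    rw [hD, Matrix.det_fromBlocks_zero₁₂, Matrix.det_one, one_mul, Matrix.det_smul,
      Matrix.det_one, mul_one, Fintype.card_fin]
  rw [hdD, inv_pow] at hdet
  have hpow : μ ^ m ≠ 0 := pow_ne_zero _ hμ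
  field_simp at hdet
  exact hdet

/-- **Package DET0.** -/
theorem pkgDet0 : PkgDet0.{u} := by
  intro F _ _ V _ _ _ Q N A hS hfix t μ hμ hQt hcomm
  classical
  have S := hS.setup
  obtain ⟨β, hβdef⟩ : ∃ β : LinearMap.BilinForm F V, β = QuadraticMap.polarBilin Q := ⟨_, rfl⟩
  rw [← hβdef] at S
  have hnd : β.Nondegenerate := by rw [hβdef]; exact hS.nondeg
  have hβt : ∀ x y, β (t x) (t y) = μ * β x y := by
    intro x y
    rw [hβdef]
    show QuadraticMap.polar Q (t x) (t y) = μ * QuadraticMap.polar Q x y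
    unfold QuadraticMap.polar
    rw [← map_add, hQt, hQt, hQt]
    ring
  obtain ⟨A', hA'def⟩ : ∃ A' : V →ₗ[F] V, A' = A ^ (N - 1) := ⟨_, rfl⟩
  have hAA' : ∀ x, A (A' x) = x := fun x => by rw [hA'def]; exact S.right_inv x
  have hA'A : ∀ x, A' (A x) = x := fun x => by rw [hA'def]; exact S.left_inv x
  have hcomm' : ∀ v, t (A' v) = A' (t v) := by
    intro v
    have h1 : A (t (A' v)) = t v := by rw [← hcomm, hAA']
    rw [← h1, hA'A]
  obtain ⟨ω, hωdef⟩ : ∃ ω : LinearMap.BilinForm F V, ω = β.compLeft (A - A') := ⟨_, rfl⟩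
  have hω : ∀ x y, ω x y = β (A x) y - β (A' x) y := by
    intro x y
    rw [hωdef, LinearMap.BilinForm.compLeft_apply, LinearMap.sub_apply, map_sub,
      LinearMap.sub_apply]
  have hAlt : ω.IsAlt := by
    intro x
    rw [hω]
    have h1 : β (A' x) x = β (A x) x := by
      rw [← S.isom (A' x) x, hAA', S.symm]
    rw [h1, sub_self]
  have hωt : ∀ x y, ω (t x) (t y) = μ * ω x y := by
    intro x y
    rw [hω, hω, ← hcomm, ← hcomm', hβt, hβt]
    ring
  have hωnd : ∀ x, (∀ y, ω x y = 0) → x = 0 := by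
    intro x hx
    have h1 : A x - A' x = 0 := by
      apply hnd.1
      intro y
      rw [map_sub, LinearMap.sub_apply, ← hω]
      exact hx y
    have h2 : A (A x) = x := by
      have h : A x = A' x := sub_eq_zero.mp h1
      rw [h, hAA']
    apply hfix
    obtain ⟨k, hk⟩ := S.odd
    have h3 : ∀ j : ℕ, (A ^ (2 * j)) x = x := by
      intro j
      induction j with
      | zero => simp
      | succ j ih =>
        rw [show 2 * (j + 1) = 2 * j + 2 by ring, pow_add, Module.End.mul_apply, pow_two,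
          Module.End.mul_apply, h2, ih]
    have h4 : (A ^ N) x = x := by rw [S.pow]; rfl
    rw [hk, pow_succ', Module.End.mul_apply, h3] at h4
    exact h4
  obtain ⟨m, k, b, hef, hee, hff, hrad⟩ := Cfsg.Agent.Lib.Helper99.alt_basis ω hAlt
  have hk : k = 0 := by
    by_contra hk
    have hj : 0 < k := Nat.pos_of_ne_zero hk
    exact b.ne_zero _ (hωnd _ (hrad ⟨0, hj⟩))
  subst hk
  obtain ⟨c, hcdef⟩ : ∃ c : Basis (Fin m ⊕ Fin m) F V,
      c = b.reindex (Equiv.sumEmpty (Fin m ⊕ Fin m) (Fin 0)) := ⟨_, rfl⟩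
  have hc : ∀ i, c i = b (Sum.inl i) := by
    intro i
    rw [hcdef, Basis.reindex_apply]
    rfl
  have hdim : finrank F V = 2 * m := by
    rw [Module.finrank_eq_card_basis c]
    simp
    ring
  have hG : LinearMap.BilinForm.toMatrix c ω = - Matrix.J (Fin m) F := by
    ext i j
    rw [LinearMap.BilinForm.toMatrix_apply, hc, hc, Matrix.neg_apply, Matrix.J]
    rcases i with i | i <;> rcases j with j | j
    · rw [hee]; simp
    · rw [hef]; simp [Matrix.one_apply]
    · rw [← hAlt.neg_eq, hef]; simp [Matrix.one_apply, eq_comm]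
    · rw [hff]; simp
  have hcomp : ω.comp t t = μ • ω := by
    ext x y
    simp [hωt]
  have hM := LinearMap.BilinForm.toMatrix_comp c c ω t t
  rw [hcomp, map_smul, hG] at hM
  have hM' : (LinearMap.toMatrix c c t)ᵀ * Matrix.J (Fin m) F * LinearMap.toMatrix c c t =
      μ • Matrix.J (Fin m) F := by
    have h := congrArg Neg.neg hM
    rw [Matrix.mul_neg, Matrix.neg_mul, neg_neg, smul_neg, neg_neg] at h
    exact h.symm
  rw [← LinearMap.det_toMatrix c, hdim, Nat.mul_div_cancel_left m (by norm_num)]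
  exact det_of_symp_sim m _ μ hμ hM'

end Cfsg.Agent.Lib.Helper84.OFus
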